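import Mathlib
import Cfsg.Agent.H830.Con24
import Cfsg.Agent.KFacts.FiTF.FrameF

set_option autoImplicit false

/-!
# Groups with a subgroup `Fi24'` of index two and trivial centraliser are `Fi24` (helper830)
-/

namespace Cfsg.Agent.H830.Over24

open Cfsg Cfsg.Agent.R08 Cfsg.Agent.R08.FiTwentyFour
open Cfsg.Agent.H830.Con24

open Cfsg.Agent.Fischer.Fi24Class (gen gen_sq)

/-- the centraliser of `Fi24'` in `Fi24` is trivial -/
theorem cent_comm {x : Spor.Fi24} (h : ∀ g ∈ commutator Spor.Fi24, x * g = g * x) : x = 1 := by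
  have hidx := index_commutator
  by_cases hx : x ∈ commutator Spor.Fi24
  · have h1 : (⟨x, hx⟩ : ↥(commutator Spor.Fi24)) ∈ Subgroup.center ↥(commutator Spor.Fi24) := by
      rw [Subgroup.mem_center_iff]
      intro g
      exact Subtype.ext (h g g.2).symm
    rw [center_of_simple isSimple ncomm, Subgroup.mem_bot] at h1
    exact congrArg Subtype.val h1
  · have h1 : x ∈ Subgroup.center Spor.Fi24 := by
      rw [Subgroup.mem_center_iff]
      intro g
      by_cases hg : g ∈ commutator Spor.Fi24
      · exact (h g hg).symm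
      · have hgx : g * x ∈ commutator Spor.Fi24 :=
          (Subgroup.mul_mem_iff_of_index_two hidx).2 (by tauto)
        have h2 := h _ hgx
        have h3 : x * g * x = g * x * x := by rw [mul_assoc]; exact h2
        exact (mul_right_cancel h3).symm
    rw [center_eq_bot, Subgroup.mem_bot] at h1
    exact h1

theorem eq_of_conj {a b : Spor.Fi24}
    (h : ∀ y : ↥(commutator Spor.Fi24), a * (y : Spor.Fi24) * a⁻¹ = b * (y : Spor.Fi24) * b⁻¹) :
    a = b := by
  have h1 : b⁻¹ * a = 1 := by
    apply cent_comm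
    intro g hg
    have h2 : a * g * a⁻¹ = b * g * b⁻¹ := h ⟨g, hg⟩
    calc b⁻¹ * a * g = b⁻¹ * (a * g * a⁻¹) * a := by group
      _ = b⁻¹ * (b * g * b⁻¹) * a := by rw [h2]
      _ = g * (b⁻¹ * a) := by group
  have h2 := eq_inv_of_mul_eq_one_right h1
  rw [inv_inv] at h2
  exact h2

/-- **The group over `Fi24'`.** -/
theorem exists_iso {X : Type*} [Group X] [Finite X] (G₀ : Subgroup X) (hidx : G₀.index = 2)
    (e : ↥G₀ ≃* Spor.Fi24') (hC : ∀ x : X, (∀ g ∈ G₀, x * g = g * x) → x = 1) :
    ∃ f : X ≃* Spor.Fi24, ∀ g : ↥G₀, f (g : X) = ((e g : Spor.Fi24') : Spor.Fi24) := by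
  have hN : G₀.Normal := Subgroup.normal_of_index_eq_two hidx
  have hfin : Finite Spor.Fi24 := finite_Fi24
  let α : X → MulAut Spor.Fi24' := fun x => (e.symm.trans (MulAut.conjNormal x)).trans e
  have hα : ∀ (x : X) (y : Spor.Fi24'), α x y = e (MulAut.conjNormal x (e.symm y)) := fun x y => rfl
  choose g hg using fun x => Cfsg.Agent.KFacts.FiTF.exists_conj (α x)
  have hαmul : ∀ x y z, α (x * y) z = α x (α y z) := by
    intro x y z
    rw [hα, hα, hα, e.symm_apply_apply, map_mul]
    rfl
  have hmul : ∀ x y, g (x * y) = g x * g y := by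
    intro x y
    apply eq_of_conj
    intro z
    rw [← hg (x * y) z, hαmul, hg x, hg y]
    group
  let f : X →* Spor.Fi24 := MonoidHom.mk' g hmul
  have hfe : ∀ y : ↥G₀, f (y : X) = ((e y : Spor.Fi24') : Spor.Fi24) := by
    intro y
    apply eq_of_conj
    intro z
    show g (y : X) * (z : Spor.Fi24) * (g (y : X))⁻¹ = _
    rw [← hg (y : X) z, hα]
    have h1 : MulAut.conjNormal (y : X) (e.symm z) = y * e.symm z * y⁻¹ := by
      apply Subtype.ext
      rw [MulAut.conjNormal_apply]
      rfl
    rw [h1, map_mul, map_mul, map_inv, e.apply_symm_apply]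
    rfl
  have hinj : Function.Injective f := by
    rw [injective_iff_map_eq_one]
    intro x hx
    apply hC
    intro y hy
    have hx' : g x = 1 := hx
    have h1 := hg x (e ⟨y, hy⟩)
    rw [hx', one_mul, inv_one, mul_one] at h1
    have h2 : α x (e ⟨y, hy⟩) = e ⟨y, hy⟩ := Subtype.ext h1
    rw [hα, e.symm_apply_apply] at h2
    have h3 := e.injective h2
    have h4 : x * y * x⁻¹ = y := by
      have := congrArg Subtype.val h3
      rw [MulAut.conjNormal_apply] at this
      exact this
    calc x * y = (x * y * x⁻¹) * x := by group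
      _ = y * x := by rw [h4]
  have hcard : Nat.card X = Nat.card Spor.Fi24 := by
    have h1 := G₀.card_mul_index
    have h2 := (commutator Spor.Fi24).card_mul_index
    rw [hidx] at h1
    rw [index_commutator] at h2
    have h3 : Nat.card ↥G₀ = Nat.card ↥(commutator Spor.Fi24) := Nat.card_congr e.toEquiv
    rw [← h1, ← h2, h3]
  have hbij : Function.Bijective f := (Nat.bijective_iff_injective_and_card f).2 ⟨hinj, hcard⟩
  exact ⟨MulEquiv.ofBijective f hbij, hfe⟩

end Cfsg.Agent.H830.Over24
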