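import Mathlib
import Cfsg.Agent.H830.Over24
import Cfsg.Prelude.Def_ClassificationK
import Cfsg.Prelude.Def_Transfer

set_option autoImplicit false

/-!
# The extension of a group of large Fischer type by an outer involution is `Fi24` (helper830)
-/

namespace Cfsg.Agent.H830.Cent24

open Cfsg

theorem center_le_genFitting (G : Type*) [Group G] :
    Subgroup.center G ≤ generalizedFittingSubgroup G := by
  have h1 : Group.IsNilpotent (Subgroup.center G) := by
    let _ : CommGroup (Subgroup.center G) :=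
      { (inferInstance : Group (Subgroup.center G)) with
        mul_comm := fun a b => Subtype.ext ((Subgroup.mem_center_iff.mp b.2) a) }
    exact CommGroup.isNilpotent
  have h2 : Subgroup.center G ≤ fittingSubgroup G :=
    le_sSup (a := Subgroup.center G) (s := {N : Subgroup G | N.Normal ∧ Group.IsNilpotent N})
      ⟨inferInstance, h1⟩
  exact h2.trans le_sup_right

variable {X : Type*} [Group X]

/-- the centraliser of `G₀` is trivial -/
theorem cent_trivial (G₀ : Subgroup X) (hidx : G₀.index = 2) (hZ : Subgroup.center ↥G₀ = ⊥)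
    (z : ↥G₀) (hF : (Cfsg.generalizedFittingSubgroup
      ↥(Subgroup.centralizer ({(z : X)} : Set X))).map (Subgroup.subtype _) ≤ G₀) :
    ∀ x : X, (∀ g ∈ G₀, x * g = g * x) → x = 1 := by
  intro x hx
  by_cases hxG : x ∈ G₀
  · have h1 : (⟨x, hxG⟩ : ↥G₀) ∈ Subgroup.center ↥G₀ := by
      rw [Subgroup.mem_center_iff]
      intro g
      exact Subtype.ext (hx g g.2).symm
    rw [hZ, Subgroup.mem_bot] at h1
    exact congrArg Subtype.val h1
  · exfalso
    apply hxG
    have hcen : ∀ g : X, g * x = x * g := by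
      intro g
      by_cases hg : g ∈ G₀
      · exact (hx g hg).symm
      · have hgx : g * x ∈ G₀ :=
          (Subgroup.mul_mem_iff_of_index_two hidx).2 (by tauto)
        have h2 := hx _ hgx
        have h3 : x * g * x = g * x * x := by rw [mul_assoc]; exact h2
        exact (mul_right_cancel h3).symm
    have hxz : x ∈ Subgroup.centralizer ({(z : X)} : Set X) :=
      Subgroup.mem_centralizer_singleton_iff.2 (hcen _).symm
    have h4 : (⟨x, hxz⟩ : ↥(Subgroup.centralizer ({(z : X)} : Set X))) ∈ Subgroup.center _ := by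
      rw [Subgroup.mem_center_iff]
      intro g
      exact Subtype.ext (hcen g)
    exact hF ⟨_, center_le_genFitting _ h4, rfl⟩

/-- **`X` is `Fi24`**, from `G₀ ≃ Fi24'` -/
theorem exists_iso [Finite X] (G₀ : Subgroup X) (hidx : G₀.index = 2)
    (hG : Cfsg.Spor.IsoFi24' ↥G₀) (z : ↥G₀) (hF : (Cfsg.generalizedFittingSubgroup
      ↥(Subgroup.centralizer ({(z : X)} : Set X))).map (Subgroup.subtype _) ≤ G₀) :
    ∃ (e : ↥G₀ ≃* Spor.Fi24') (f : X ≃* Spor.Fi24),
      ∀ g : ↥G₀, f (g : X) = ((e g : Spor.Fi24') : Spor.Fi24) := by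
  obtain ⟨e⟩ := hG
  have hZ : Subgroup.center ↥G₀ = ⊥ := by
    have h := Cfsg.Agent.H830.Con24.center_of_simple Cfsg.Agent.H830.Con24.isSimple
      Cfsg.Agent.H830.Con24.ncomm
    rw [eq_bot_iff]
    intro x hx
    have h1 : e x ∈ Subgroup.center Spor.Fi24' := by
      rw [Subgroup.mem_center_iff]
      intro g
      obtain ⟨g, rfl⟩ := e.surjective g
      rw [← map_mul, ← map_mul, Subgroup.mem_center_iff.1 hx]
    rw [h, Subgroup.mem_bot, MulEquiv.map_eq_one_iff] at h1
    exact h1
  obtain ⟨f, hf⟩ := Cfsg.Agent.H830.Over24.exists_iso G₀ hidx e (cent_trivial G₀ hidx hZ z hF)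
  exact ⟨e, f, hf⟩

end Cfsg.Agent.H830.Cent24
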